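import Cfsg.Agent.Fisch.St.TMx

/-! Linear algebra on the syndromes of a base of `Fi22`. -/

set_option autoImplicit false
set_option maxRecDepth 100000

namespace CF.Fu

open CF.Comp CF.Fisch

/-- the linear map with the given images of the basis -/
noncomputable def ln (ys : List ℕ) : ℕ → ℕ :=
  List.rec (motive := fun _ => ℕ → ℕ) (fun _ => nat_lit 0)
    (fun y _ ih x => force (Nat.shiftRight x (nat_lit 1)) fun h =>
      Bool.rec (ih h) (Nat.xor y (ih h)) (Nat.beq (Nat.land x (nat_lit 1)) (nat_lit 1))) ys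

/-- the letters belonging to the bits -/
noncomputable def wdA (l : List ℕ) : ℕ → List ℕ :=
  List.rec (motive := fun _ => ℕ → List ℕ) (fun _ => [])
    (fun y _ ih x => force (Nat.shiftRight x (nat_lit 1)) fun h =>
      Bool.rec (ih h) (y :: ih h) (Nat.beq (Nat.land x (nat_lit 1)) (nat_lit 1))) l

theorem bit_cases {α : Type} (x : ℕ) (a b : α) :
    (Bool.rec a b (Nat.beq (Nat.land x (nat_lit 1)) (nat_lit 1)) : α) = if x % 2 = 1 then b else a := by
  have : Nat.land x (nat_lit 1) = x % 2 := Nat.and_one_is_mod x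
  rw [this]
  rcases Nat.mod_two_eq_zero_or_one x with e | e <;> rw [e] <;> rfl

theorem ln_cons (y : ℕ) (ys : List ℕ) (x : ℕ) :
    ln (y :: ys) x = (if x % 2 = 1 then y else 0) ^^^ ln ys (x / 2) := by
  have : ln (y :: ys) x = force (Nat.shiftRight x (nat_lit 1)) fun h =>
      Bool.rec (ln ys h) (Nat.xor y (ln ys h)) (Nat.beq (Nat.land x (nat_lit 1)) (nat_lit 1)) := rfl
  rw [this, force_eq, bit_cases, show Nat.shiftRight x (nat_lit 1) = x / 2 from Nat.shiftRight_succ x 0]
  split_ifs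
  · rfl
  · exact (Nat.zero_xor _).symm

theorem wdA_cons (y : ℕ) (ys : List ℕ) (x : ℕ) :
    wdA (y :: ys) x = if x % 2 = 1 then y :: wdA ys (x / 2) else wdA ys (x / 2) := by
  have : wdA (y :: ys) x = force (Nat.shiftRight x (nat_lit 1)) fun h =>
      Bool.rec (wdA ys h) (y :: wdA ys h) (Nat.beq (Nat.land x (nat_lit 1)) (nat_lit 1)) := rfl
  rw [this, force_eq, bit_cases, show Nat.shiftRight x (nat_lit 1) = x / 2 from Nat.shiftRight_succ x 0]

theorem ln_zero (ys : List ℕ) : ln ys 0 = 0 := by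
  induction ys with
  | nil => rfl
  | cons y ys ih => rw [ln_cons, ih]; simp

theorem ln_lt {ys : List ℕ} (h : ∀ y ∈ ys, y < 1024) (x : ℕ) : ln ys x < 1024 := by
  induction ys generalizing x with
  | nil => exact (by decide : 0 < 1024)
  | cons y ys ih =>
    rw [ln_cons]
    refine Nat.xor_lt_two_pow (n := 10) ?_ (ih (fun z hz => h z (by simp [hz])) _)
    split_ifs
    exacts [h y (by simp), by decide]

theorem ln_append (p r : List ℕ) {x : ℕ} (h : x < 2 ^ p.length) : ln (p ++ r) x = ln p x := by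
  induction p generalizing x with
  | nil => rw [show x = 0 by simpa using h, ln_zero, ln_zero]
  | cons y p ih =>
    rw [List.cons_append, ln_cons, ln_cons, ih (by rw [List.length_cons, pow_succ] at h; omega)]

section

variable {K G : Type*} [Group K] [Group G]

/-- the product belonging to the bits -/
def pr : List K → ℕ → K
  | [], _ => 1
  | g :: gs, x => (if x % 2 = 1 then g else 1) * pr gs (x / 2)

theorem ev_wdA (f : ℕ → K) (l : List ℕ) (x : ℕ) : ev f (wdA l x) = pr (l.map (evL f)) x := by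
  induction l generalizing x with
  | nil => rfl
  | cons y l ih =>
    rw [wdA_cons, List.map_cons, pr, ← ih]
    split_ifs <;> simp

theorem pr_mem {gs : List K} {H : Subgroup K} (h : ∀ g ∈ gs, g ∈ H) (x : ℕ) : pr gs x ∈ H := by
  induction gs generalizing x with
  | nil => exact one_mem _
  | cons g gs ih =>
    refine mul_mem ?_ (ih (fun z hz => h z (by simp [hz])) _)
    split_ifs
    exacts [h g (by simp), one_mem _]

theorem pr_zero (gs : List K) : pr gs 0 = 1 := by
  induction gs with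
  | nil => rfl
  | cons g gs ih => simp [pr, ih]

theorem pr_xor {gs : List K} (s : ∀ g ∈ gs, g * g = 1) (c : ∀ g ∈ gs, ∀ h ∈ gs, Commute g h) (x y : ℕ) :
    pr gs (x ^^^ y) = pr gs x * pr gs y := by
  induction gs generalizing x y with
  | nil => simp [pr]
  | cons g gs ih =>
    have k : ∀ x, Commute g (pr gs x) := fun x => (Subgroup.mem_centralizer_singleton_iff.1
      (pr_mem (H := Subgroup.centralizer {g}) (fun h hh => Subgroup.mem_centralizer_singleton_iff.2
        (c h (by simp [hh]) g (by simp))) x)).symm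
    rw [pr, pr, pr, Nat.xor_div_two, ih (fun z hz => s z (by simp [hz]))
      fun a ha b hb => c a (by simp [ha]) b (by simp [hb])]
    simp only [Nat.xor_mod_two_eq_one]
    by_cases a : x % 2 = 1 <;> by_cases b : y % 2 = 1 <;> simp only [a, b, if_true, if_false, iff_true,
      iff_false, not_true, not_false_iff, one_mul, iff_self]
    · rw [mul_assoc, ← mul_assoc (pr gs _), ← (k _).eq, mul_assoc, ← mul_assoc g, s g (by simp), one_mul]
    · rw [mul_assoc]
    · rw [← mul_assoc, (k _).eq, mul_assoc]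

theorem pr_lt {gs : List K} (x : ℕ) : ∃ y < 2 ^ gs.length, pr gs y = pr gs x := by
  induction gs generalizing x with
  | nil => exact ⟨0, by simp, rfl⟩
  | cons g gs ih =>
    obtain ⟨y, a, b⟩ := ih (x / 2)
    refine ⟨2 * y + x % 2, by rw [List.length_cons, pow_succ]; omega, ?_⟩
    rw [pr, pr, ← b, show (2 * y + x % 2) / 2 = y by omega, show (2 * y + x % 2) % 2 = x % 2 by omega]

theorem pr_hom {gs : List K} {ys : List ℕ} {H : Subgroup K} (h : ∀ g ∈ gs, g ∈ H) {φ : K → G}
    (m : ∀ x ∈ H, ∀ y ∈ H, φ (x * y) = φ x * φ y) {e : ℕ → G} (e0 : e 0 = 1) (ex : ∀ x y, e (x ^^^ y) = e x * e y)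
    (k : List.Forall₂ (fun g y => φ g = e y) gs ys) (x : ℕ) : φ (pr gs x) = e (ln ys x) := by
  have o : φ 1 = 1 := by simpa using m 1 (one_mem _) 1 (one_mem _)
  induction k generalizing x with
  | nil => exact o.trans e0.symm
  | @cons g y gs ys a _ ih =>
    have h' : ∀ g ∈ gs, g ∈ H := fun z hz => h z (by simp [hz])
    rw [pr, ln_cons, ex, ← ih h', m _ _ _ (pr_mem h' _)]
    · split_ifs
      exacts [by rw [a], by rw [o, e0]]
    · split_ifs
      exacts [h g (by simp), one_mem _]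

end

noncomputable def syn1 : List ℕ := [2, 472, 373, 128, 835, 366, 4, 8, 64, 32, 207, 243, 256, 16, 959, 1001, 982, 634, 605, 740, 512]
noncomputable def T1 : ℕ := nat_lit 0x20000400000800000000000000000000000000000080000000000000000000000100000000000000000000000000400000020000000000000000000000100000000010000000000000000000000002040000000000000000000000000010008000000008000000000000000000100000000000000010000000100010116
noncomputable def T2 : ℕ := nat_lit 0x8240291241940248688182048042142004214208204818869008016006108009041812612042841081204018180402816904049096202009044228012081411601284204164181208410108221080841609294600920400902244801408121161886801881086881024824014021811604284201204181169001019609161669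
noncomputable def GM : List (List ℕ) := [[1, 2, 4, 8, 366, 605, 207, 64, 1001, 982], [1, 2, 4, 64, 512, 32, 8, 207, 366, 16], [1, 2, 4, 243, 207, 32, 740, 512, 472, 128], [1, 2, 8, 128, 740, 373, 64, 4, 512, 835], [1, 4, 256, 959, 207, 8, 982, 366, 16, 835]]
noncomputable def M0 : List ℕ := [1, 4, 2, 472, 64, 32, 16, 256, 128, 982]
noncomputable def tests : List (List ℕ) := [[15], [27, 19, 25], [60, 39, 37], [79, 105], [207, 149], [366, 509], [605, 519]]
noncomputable def W1 : List (List ℕ) := [[4],[3,2,0],[3,4,1],[3],[3,4],[3,4,1,0],[],[3,3],[3,0,0],[3,3,4],[3,0],[3,3,2],[3,2,3],[3,2,1],[3,4,0],[3,2,0,1],[3,2,0,0],[3,3,4,0],[3,3,4,0,0],[3,2,3,0],[3,2]]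
noncomputable def W2 : List (List ℕ) := [[],[4,4,0,1,3,0],[3,2,3,4,2,0],[3,2,3,4,1],[4,4,1,3,3],[3,4,0,4,3],[3,2,3,4,0,1],[3,2,3,4,0],[3,2,4,0,1,4],[3,2,3,4],[3,4,4,3,4],[4,4,2,4,4],[3,2,3,4,2],[4,4,1,3,3,0],[3,4,0,4,3,2],[4,0,4,4,4,4],[3,0,0,4,4,3],[3,4,3,0,2,4],[4,4,2,4,4,0],[4,4,0,1,3]]
noncomputable def RL : List (ℕ × List ℕ) := [(2, [472,373,64,32,207]),
  (2, [128,835,366,256,16,959]),
  (472, [2,373,64,32,207]),
  (472, [128,835,4,8,243,740]),
  (373, [2,472,64,32,207]),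
  (373, [128,835,4,959,1001,740]),
  (128, [2,373,4,243,256]),
  (128, [472,835,8,959,982,634]),
  (835, [2,472,243,16,634]),
  (835, [373,128,4,32,207,605]),
  (366, [2,472,256,1001,605]),
  (366, [373,128,4,64,207,16]),
  (4, [2,472,8,982,512]),
  (4, [373,128,835,32,207,605]),
  (8, [2,472,4,982,512]),
  (8, [373,128,835,243,16,605]),
  (64, [2,472,373,32,207]),
  (64, [128,835,366,4,256,1001]),
  (32, [2,472,373,64,207]),
  (32, [128,835,366,4,243,634]),
  (207, [2,472,373,64,32]),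
  (207, [128,835,366,8,16,634]),
  (243, [2,472,835,16,634]),
  (243, [373,128,366,8,64,32]),
  (256, [2,472,366,1001,605]),
  (256, [373,128,835,64,32,982]),
  (16, [2,472,835,243,634]),
  (16, [373,128,366,4,64,207]),
  (959, [2,373,835,982,605]),
  (959, [472,128,366,64,32,1001]),
  (1001, [2,472,366,256,605]),
  (1001, [373,128,835,4,959,740]),
  (982, [2,472,4,8,512]),
  (982, [373,128,835,64,32,256]),
  (634, [2,472,835,243,16]),
  (634, [373,128,366,8,256,1001]),
  (605, [2,472,366,256,1001]),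
  (605, [373,128,835,4,32,207]),
  (740, [2,373,1001,634,512]),
  (740, [472,128,835,4,8,243]),
  (512, [2,472,4,8,982]),
  (512, [373,128,64,207,256,634])]
noncomputable def tab : List (List ℕ × List ℕ × List ℕ) := [([1,4,2,472,366,605,835,373,128,982], [4,0,1,3,0,1], []),
  ([1,4,2,472,366,605,207,16,959,512], [2,0,0,1], []),
  ([1,4,2,472,64,32,16,256,128,982], [], []),
  ([1,4,2,472,64,32,1001,835,740,8], [4,1,3,3,0,2,1], []),
  ([1,4,2,472,243,634,373,1001,959,512], [2,1,4,0,1,3], []),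
  ([1,4,2,472,243,634,256,207,740,8], [1,0,2], []),
  ([1,4,2,373,207,32,835,1001,16,128], [0,2,4,0,1,3], []),
  ([1,4,2,373,207,32,740,982,8,256], [0,0,1,0], []),
  ([1,4,2,373,959,605,64,740,366,243], [2,1,0,0], []),
  ([1,4,2,373,959,605,1001,472,8,256], [4,1,3,3], []),
  ([1,4,2,373,512,634,472,835,366,243], [2,4,0,1,3], []),
  ([1,4,2,373,512,634,982,64,16,128], [0,2], []),
  ([1,4,2,128,835,32,366,512,472,243], [1,0,0,2,0], []),
  ([1,4,2,128,835,32,207,64,959,373], [4,1,3,3,2,0,2], []),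
  ([1,4,2,128,16,605,64,8,472,243], [4,0,1,3,2,0], []),
  ([1,4,2,128,16,605,1001,366,740,256], [0,0,2], []),
  ([1,4,2,128,982,634,8,207,740,256], [0,4,0,1,3,2,0], []),
  ([1,4,2,128,982,634,512,1001,959,373], [2,1,0,2,1], []),
  ([1,4,2,835,128,32,373,472,512,207], [4,0,1,0,3,2], []),
  ([1,4,2,835,128,32,243,959,64,366], [0,1,0,0], []),
  ([1,4,2,835,16,634,959,8,512,207], [0,2,1], []),
  ([1,4,2,835,16,634,1001,373,256,740], [2,4,0,1,3,1], []),
  ([1,4,2,835,982,605,472,1001,64,366], [4,1,3,3,1], []),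
  ([1,4,2,835,982,605,8,243,256,740], [2,0,1,0], []),
  ([1,4,2,366,472,605,982,959,16,835], [2,4,0,1,3,0], []),
  ([1,4,2,366,472,605,512,128,373,207], [0,2,0], []),
  ([1,4,2,366,64,634,959,256,373,207], [0,2,4,0,1,3,0], []),
  ([1,4,2,366,64,634,1001,512,8,740], [1,0,1], []),
  ([1,4,2,366,243,32,128,1001,16,835], [2,1], []),
  ([1,4,2,366,243,32,256,982,8,740], [4,1,3,3,0], []),
  ([1,4,2,8,256,634,128,64,16,982], [4,0,1,3,2,1], []),
  ([1,4,2,8,256,634,243,835,366,472], [2,0,2,1], []),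
  ([1,4,2,8,1001,32,64,207,366,472], [0,4,0,1,3,2,1], []),
  ([1,4,2,8,1001,32,959,243,373,512], [0,1,0,2,0], [2,0]),
  ([1,4,2,8,740,605,835,959,16,982], [0,1,0,2], []),
  ([1,4,2,8,740,605,207,128,373,512], [4,0,1,3,2,1,0], []),
  ([1,4,2,64,472,32,8,128,256,1001], [0,4,0,1,3,2], []),
  ([1,4,2,64,472,32,982,740,835,16], [0,0,2,1,0], []),
  ([1,4,2,64,366,634,207,8,512,959], [4,0,1,3,2], []),
  ([1,4,2,64,366,634,740,373,256,1001], [2,0,2], []),
  ([1,4,2,64,243,605,373,982,512,959], [1,0,0,2], []),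
  ([1,4,2,64,243,605,128,207,835,16], [1,4,0,1,3,2,0], []),
  ([1,4,2,207,373,32,128,8,982,835], [4,0,1,3,2,0,0], []),
  ([1,4,2,207,373,32,256,16,1001,740], [0,0,2,0], []),
  ([1,4,2,207,959,634,64,128,243,366], [1,4,0,1,3,2], []),
  ([1,4,2,207,959,634,16,472,982,835], [2,1,0,2], []),
  ([1,4,2,207,512,605,472,256,243,366], [0,0,2,1], []),
  ([1,4,2,207,512,605,8,64,1001,740], [4,0,1,3,2,0,1], []),
  ([1,4,2,243,472,634,8,959,1001,256], [2,0,1], []),
  ([1,4,2,243,472,634,512,740,207,373], [4,0,1,3,1], []),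
  ([1,4,2,243,366,32,835,8,982,128], [0,2,1,0,0], []),
  ([1,4,2,243,366,32,740,16,1001,256], [0,4,0,1,3,1], []),
  ([1,4,2,243,64,605,16,512,982,128], [0,0,4,0,1,3,1], []),
  ([1,4,2,243,64,605,959,835,207,373], [0,1,0], []),
  ([1,4,2,256,8,634,472,16,64,243], [1,0], []),
  ([1,4,2,256,8,634,982,366,835,128], [4,1,3,3,0,2,0], []),
  ([1,4,2,256,1001,605,16,207,835,128], [0,2,0,1], []),
  ([1,4,2,256,1001,605,959,982,512,373], [3,1,4,4,4,4], []),
  ([1,4,2,256,740,32,366,959,64,243], [4,0,1,3,0,0], []),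
  ([1,4,2,256,740,32,207,472,512,373], [2], []),
  ([1,4,2,16,128,605,243,740,366,64], [0,0,1,4,0,1,3], []),
  ([1,4,2,16,128,605,256,472,8,1001], [0,0,1], []),
  ([1,4,2,16,835,634,207,256,373,959], [2,1,0], []),
  ([1,4,2,16,835,634,740,512,8,1001], [1,4,0,1,3], []),
  ([1,4,2,16,982,32,472,207,366,64], [0,2,0,0], []),
  ([1,4,2,16,982,32,512,243,373,959], [0,1,4,0,1,3], []),
  ([1,4,2,959,373,605,243,8,472,64], [0,2,1,0], []),
  ([1,4,2,959,373,605,256,366,740,1001], [4,1,3,3,2,1], []),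
  ([1,4,2,959,207,634,835,243,128,16], [0,1], []),
  ([1,4,2,959,207,634,366,982,472,64], [4,0,1,0,3,2,0], []),
  ([1,4,2,959,512,32,8,835,740,1001], [2,0,1,0,0], []),
  ([1,4,2,959,512,32,982,256,128,16], [4,0,1,0,3], []),
  ([1,4,2,1001,8,32,472,373,243,64], [4,1,3,3,0,2], []),
  ([1,4,2,1001,8,32,512,366,207,959], [1], []),
  ([1,4,2,1001,256,605,373,835,207,959], [4,0,1,3,0], []),
  ([1,4,2,1001,256,605,128,512,982,16], [2,0,0], []),
  ([1,4,2,1001,740,634,835,472,982,16], [0,4,0,1,3,0], []),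
  ([1,4,2,1001,740,634,366,128,243,64], [1,0,2,1], []),
  ([1,4,2,982,128,634,373,740,207,512], [0], []),
  ([1,4,2,982,128,634,256,959,1001,8], [2,4,0,1,3,2], []),
  ([1,4,2,982,835,605,366,256,243,472], [4,1,3,3,2], []),
  ([1,4,2,982,835,605,740,64,1001,8], [1,0,2,0], []),
  ([1,4,2,982,16,32,64,373,243,472], [2,0,0,1,0], [2]),
  ([1,4,2,982,16,32,959,366,207,512], [4,0,1,0,3,1], []),
  ([1,4,2,740,8,605,982,373,128,835], [1,0,0], []),
  ([1,4,2,740,8,605,512,16,959,207], [0,0,4,0,1,3], []),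
  ([1,4,2,740,256,32,373,64,959,207], [0,2,0,1,0], []),
  ([1,4,2,740,256,32,243,512,472,366], [0,4,0,1,3], []),
  ([1,4,2,740,1001,634,64,982,472,366], [2,0], []),
  ([1,4,2,740,1001,634,16,243,128,835], [4,0,1,3], []),
  ([1,4,2,512,373,634,128,366,835,982], [2,1,0,1], []),
  ([1,4,2,512,373,634,243,16,64,472], [1,4,0,1,3,1], []),
  ([1,4,2,512,207,605,366,1001,64,472], [0,0], []),
  ([1,4,2,512,207,605,740,243,256,8], [2,4,0,1,3,2,0], []),
  ([1,4,2,512,959,32,16,740,835,982], [4,1,3,3,2,0], []),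
  ([1,4,2,512,959,32,1001,128,256,8], [1,0,2,0,0], [0])]
noncomputable def syn : List ℕ := 1 :: syn1
noncomputable def ID : List ℕ := [1, 2, 4, 8, 16, 32, 64, 128, 256, 512]
noncomputable def Yl : List ℕ := [6, 80, 86, 384, 390, 464, 470]

/-- the action of a word in the generators -/
noncomputable def act (w : List ℕ) (x : ℕ) : ℕ :=
  List.rec (motive := fun _ => ℕ) x (fun i _ r => force r (ln (nth ID GM i))) w

theorem act_cons (i : ℕ) (w : List ℕ) (x : ℕ) : act (i :: w) x = ln (nth ID GM i) (act w x) := force_eq _ _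

theorem act_append (u w : List ℕ) (x : ℕ) : act (u ++ w) x = act u (act w x) := by
  induction u with
  | nil => rfl
  | cons i u ih => rw [List.cons_append, act_cons, act_cons, ih]

theorem gm_lt (i : ℕ) : ∀ y ∈ nth ID GM i, y < 1024 := by
  rcases nth_mem_or ID GM i with h | h
  · exact (by decide +kernel : ∀ l ∈ GM, ∀ y ∈ l, y < 1024) _ h
  · rw [h]; decide +kernel

theorem act_lt (w : List ℕ) {x : ℕ} (h : x < 1024) : act w x < 1024 := by
  cases w with
  | nil => exact h
  | cons i w => rw [act_cons]; exact ln_lt (gm_lt i) _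

noncomputable def same (x y : ℕ) : Bool :=
  bnd (Bool.rec (Bool.not (tb T1 y)) (tb T1 y) (tb T1 x)) (Bool.rec (Bool.not (tb T2 y)) (tb T2 y) (tb T2 x))

theorem same_of {x y : ℕ} (a : tb T1 x = tb T1 y) (b : tb T2 x = tb T2 y) : same x y = true := by
  rw [same, a, b]
  cases tb T1 y <;> cases tb T2 y <;> rfl

/-- the search for the maps that preserve the weights -/
noncomputable def srch (leaf : List ℕ → Bool) (ts : List (List ℕ)) : List ℕ → Bool :=
  List.rec (motive := fun _ => List ℕ → Bool) leaf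
    (fun t _ ih p => lall (fun c => forceN (lapp p [c]) fun ys =>
      Bool.rec true (ih ys) (lall (fun x => force (ln ys x) fun y => same y x) t)) syn) ts

noncomputable def wfT (ts : List (List ℕ)) : ℕ → Bool :=
  List.rec (motive := fun _ => ℕ → Bool) (fun _ => true)
    (fun t _ ih k => bnd (lall (fun x => Nat.ble (x + 1) (2 ^ (k + 1))) t) (ih (k + 1))) ts

theorem srch_ok {leaf : List ℕ → Bool} {ys : List ℕ} (m : ∀ y ∈ ys, y ∈ syn)
    (s : ∀ x < 2 ^ ys.length, same (ln ys x) x = true) (ts : List (List ℕ)) :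
    ∀ p r, p ++ r = ys → r.length = ts.length → wfT ts p.length = true → srch leaf ts p = true → leaf ys = true := by
  induction ts with
  | nil =>
    intro p r e l _ h
    rwa [← e, List.length_eq_zero_iff.1 l, List.append_nil]
  | cons t ts ih =>
    intro p r e l w h
    obtain ⟨c, r, rfl⟩ : ∃ c r', r = c :: r' := by
      cases r with
      | nil => simp at l
      | cons c r => exact ⟨c, r, rfl⟩
    obtain ⟨w1, w2⟩ := brec_and.1 w
    have e' : p ++ [c] ++ r = ys := by simpa using e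
    have k := lall_iff.1 (show lall (fun c => forceN (lapp p [c]) fun ys => Bool.rec true (srch leaf ts ys)
      (lall (fun x => force (ln ys x) fun y => same y x) t)) syn = true from h) c (m c (by simp [← e]))
    rw [forceN_eq, lapp_eq, lall_iff.2 fun x hx => ?_] at k
    · exact ih _ r e' (by simpa using l) (by rw [List.length_append]; exact w2) k
    have b : x < 2 ^ (p ++ [c]).length := by simpa using ble_iff.1 (lall_iff.1 w1 x hx)
    rw [force_eq, ← ln_append _ r b, e']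
    exact s x (b.trans_le (Nat.pow_le_pow_right (by decide) (by simp [← e])))

theorem srch_all : srch (fun ys => lany (fun t => leq t.1 ys) tab) tests [1, 4, 2] = true := by decide +kernel

theorem tab_ok : ∀ t ∈ tab, lmap (act t.2.1) t.1 = ID ∨ lmap (act t.2.1) t.1 = M0 ∧
    (lmap (ln t.1) t.1 = ID → lmap (fun b => ln t.1 (act t.2.2 b)) ID = lmap (act t.2.2) M0) := by decide +kernel

/-- the maps that interchange two points -/
theorem norm {ys : List ℕ} (m : ∀ y ∈ ys, y ∈ syn) (l : ys.length = 10) (s : ∀ x < 1024, same (ln ys x) x = true)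
    (p : ys.take 3 = [1, 4, 2]) : ∃ u w, ys.map (act u) = ID ∨ ys.map (act u) = M0 ∧
      (ys.map (ln ys) = ID → ID.map (fun b => ln ys (act w b)) = M0.map (act w)) := by
  have k := srch_ok m (by rwa [l]) tests [1, 4, 2] (ys.drop 3) (by rw [← p, List.take_append_drop])
    (by rw [List.length_drop, l]; decide +kernel) (by decide +kernel) srch_all
  obtain ⟨t, ht, e⟩ := lany_iff.1 k
  have := tab_ok t ht
  simp only [lmap_eq, leq_iff.1 e] at this
  exact ⟨_, _, this⟩

theorem two0 : ∀ p ∈ syn1, ∃ u ∈ W1, act u p = 4 ∧ ∀ q ∈ syn1, q = p ∨ ∃ w ∈ W2, act w 4 = 4 ∧ act w (act u q) = 2 := by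
  decide +kernel

theorem two {p q : ℕ} (hp : p ∈ syn1) (hq : q ∈ syn1) (n : q ≠ p) : ∃ w, act w p = 4 ∧ act w q = 2 :=
  let ⟨u, _, a, b⟩ := two0 p hp
  let ⟨w, _, c, d⟩ := (b q hq).resolve_left n
  ⟨w ++ u, by rw [act_append, a, c], by rw [act_append, d]⟩

theorem t1_iff : ∀ x < 1024, tb T1 x = true ↔ x ∈ syn := by decide +kernel

noncomputable def msk (l : List ℕ) : ℕ := List.rec (motive := fun _ => ℕ) (nat_lit 0) (fun a _ r => Nat.lor r (one a)) l

theorem testBit_msk (l : List ℕ) (x : ℕ) : (msk l).testBit x = true ↔ x ∈ l := by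
  induction l with
  | nil => simp [msk]
  | cons a l ih =>
    have : msk (a :: l) = msk l ||| one a := rfl
    rw [this, Nat.testBit_or, Bool.or_eq_true, ih, one_eq, Nat.testBit_two_pow, List.mem_cons, decide_eq_true_iff,
      or_comm, eq_comm]

theorem t2_iff (x : ℕ) : tb T2 x = true ↔ ∃ p ∈ syn, ∃ q ∈ syn, p ^^^ q = x := by
  rw [tb_eq, show T2 = msk (syn.flatMap fun p => syn.map fun q => p ^^^ q) by decide +kernel, testBit_msk]
  simp

theorem syn_lt : ∀ p ∈ syn, p < 1024 := by decide +kernel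

theorem fixZ : ∀ r ∈ [2, 6, 14], ∃ u ∈ [[3, 0], [0]], ∃ w ∈ [[], [4, 0, 1, 3], [3, 4, 1, 4, 2, 1]],
    act u r = r ∧ act w r = r ∧ ∀ x < 1024, act u x = x → act w x = x → x = 0 ∨ x = 1 ∨ x = r ∨ x = 1 ^^^ r := by
  decide +kernel

theorem rl_ok : ∀ r ∈ RL, (r.1 :: r.2).Nodup ∧ (∀ x ∈ r.2, x ∈ syn1) ∧ r.2.foldr (· ^^^ ·) 0 = r.1 := by
  decide +kernel

theorem rl_av : ∀ p ∈ syn1, ∀ q ∈ syn, ∃ r ∈ RL, r.1 = p ∧ q ∉ r.2 := by decide +kernel

theorem swp : ∀ r ∈ [2, 6, 14], ∃ t ∈ [([0, 3], [4, 2, 4], 1012), ([1], [3, 2, 1, 3], 272),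
    ([3, 0, 0, 1, 0], [1, 3, 0, 0], 68)], act t.1 r = r ∧ act t.2.1 (act t.2.1 r) = r ∧ act t.2.1 r ≠ r ∧
      t.2.2 ^^^ act t.1 t.2.2 = r ^^^ act t.2.1 r := by decide +kernel

theorem m0_lt : ∀ y ∈ M0, y < 1024 := by decide +kernel

theorem m0_ne : ∀ x < 1024, x ^^^ ln M0 x ≠ 1 := by decide +kernel

theorem m0_m0 : M0.map (ln M0) = ID := by decide +kernel

theorem yl_ok : ∀ y ∈ Yl, ln M0 y = y ∧ (∃ x ∈ [2, 16, 18, 128, 130, 144, 146], x ^^^ ln M0 x = y) ∧
    (∃ p ∈ syn1, ∃ q ∈ syn1, p ≠ q ∧ p ^^^ q = y) ∧ ∀ z ∈ Yl, y ≠ z → y ^^^ z ∈ Yl := by decide +kernel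

theorem two_in {I : ℕ → Prop} (h : ∀ u ∈ Yl, ∀ w ∈ Yl, I u ∨ I w ∨ I (u ^^^ w)) :
    ∃ u ∈ Yl, ∃ w ∈ Yl, u ≠ w ∧ I u ∧ I w := by
  have k : ∀ u w, u ∈ Yl ∧ w ∈ Yl ∧ u ≠ w → I u → I w → ∃ u ∈ Yl, ∃ w ∈ Yl, u ≠ w ∧ I u ∧ I w :=
    fun u w a b c => ⟨u, a.1, w, a.2.1, a.2.2, b, c⟩
  rcases h 6 (by decide +kernel) 80 (by decide +kernel) with a | a | a
  · rcases h 80 (by decide +kernel) 384 (by decide +kernel) with b | b | b <;> exact k _ _ (by decide +kernel) a b
  · rcases h 6 (by decide +kernel) 384 (by decide +kernel) with b | b | b <;> exact k _ _ (by decide +kernel) a b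
  · rcases h 6 (by decide +kernel) 384 (by decide +kernel) with b | b | b <;> exact k _ _ (by decide +kernel) a b

end CF.Fu
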